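import Cfsg.Agent.Lib.ToddCox.U62T.Tab
set_option autoImplicit false
set_option maxRecDepth 100000
namespace Cfsg.Agent.Lib.ToddCox.U62T
theorem a0 : allBits chkAll 10 0 = true := by decide +kernel
theorem a1 : allBits chkAll 10 1024 = true := by decide +kernel
theorem bk0 : allBits (fun i => bif (and (Nat.ble 0 i) (Nat.blt i 1)) then chkBlockPt tab Sw 0 1 i (pr i) else true) 11 0 = true := by decide +kernel
theorem bk1 : allBits (fun i => bif (and (Nat.ble 1 i) (Nat.blt i 568)) then chkBlockPt tab Sw 1 568 i (pr i) else true) 11 0 = true := by decide +kernel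
theorem bk2 : allBits (fun i => bif (and (Nat.ble 568 i) (Nat.blt i 1408)) then chkBlockPt tab Sw 568 1408 i (pr i) else true) 11 0 = true := by decide +kernel
end Cfsg.Agent.Lib.ToddCox.U62T
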